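/-
Blocks in the defining characteristic for groups with root subgroups and nontrivial centre.
-/
import Cfsg.Agent.Lib.Chev.St2
import Cfsg.Agent.Lib.Char.Linear

set_option autoImplicit false
set_option linter.unusedSectionVars false

open Cfsg Cfsg.Agent.Char
open scoped ComplexConjugate Classical

namespace Cfsg.Agent.TypeA

open Cfsg.Agent.Fix MonoidAlgebra

universe u
variable {G : Type u} [Group G] [Fintype G] {p : ℕ} [hp : Fact p.Prime]

theorem isNilpotent_of_normal' {H : Type*} [Group H] [Fintype H] {Q : Subgroup H} [hn : Q.Normal]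
    (hQ : IsPGroup p Q) (S : H → Prop) (hC : ∀ x, S x → (∀ q ∈ Q, Commute x q) → x ∈ Q)
    (hS : ∀ q ∈ Q, ∀ x, S (q * x * q⁻¹) ↔ S x) :
    IsNilpotent (∑ x, if S x then (single x 1 - 1 : MonoidAlgebra (ZMod p) H) else 0) := by
  have : Finite (MonoidAlgebra (ZMod p) H) := Finite.of_injective _ coeff_injective
  obtain ⟨n, hn'⟩ := IsArtinianRing.isNilpotent_jacobson_bot (R := MonoidAlgebra (ZMod p) H)
  suffices h : (∑ x, if S x then (single x 1 - 1 : MonoidAlgebra (ZMod p) H) else 0) ∈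
      Ideal.jacobson (⊥ : Ideal (MonoidAlgebra (ZMod p) H)) by
    have := Ideal.pow_mem_pow h n
    rw [hn'] at this
    exact ⟨n, this⟩
  rw [Ideal.jacobson, Ideal.mem_sInf]
  rintro m ⟨-, hm⟩
  have hs : IsSimpleModule (MonoidAlgebra (ZMod p) H) (MonoidAlgebra (ZMod p) H ⧸ m) :=
    isSimpleModule_iff_isCoatom.mpr hm.out
  have hpV : ∀ v : MonoidAlgebra (ZMod p) H ⧸ m, p • v = 0 := fun v => by
    rw [← Nat.cast_smul_eq_nsmul (ZMod p), ZMod.natCast_self, zero_smul]
  let W : Submodule (MonoidAlgebra (ZMod p) H) (MonoidAlgebra (ZMod p) H ⧸ m) :=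
    { carrier := {v | ∀ q ∈ Q, (single q 1 : MonoidAlgebra (ZMod p) H) • v = v}
      zero_mem' := fun q _ => smul_zero _
      add_mem' := fun {a b} ha hb q hq => by rw [smul_add, ha q hq, hb q hq]
      smul_mem' := fun a v hv q hq => by
        induction a using MonoidAlgebra.induction_linear with
        | zero => simp
        | add a b ha hb => rw [add_smul, smul_add, ha, hb]
        | single h r =>
          conv_rhs => rw [← hv (h⁻¹ * q * h⁻¹⁻¹) (hn.conj_mem q hq _)]
          rw [smul_smul, smul_smul, single_mul_single, single_mul_single]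
          simp [mul_assoc] }
  have hW : W = ⊤ := by
    refine (eq_bot_or_eq_top W).resolve_left fun h => ?_
    let _ : MulAction Q (MonoidAlgebra (ZMod p) H ⧸ m) :=
      { smul := fun q v => (single (q : H) 1 : MonoidAlgebra (ZMod p) H) • v
        one_smul := fun v => one_smul (MonoidAlgebra (ZMod p) H) v
        mul_smul := fun a b v => by
          change (single ((a : H) * b) 1 : MonoidAlgebra (ZMod p) H) • v =
            (single (a : H) 1 : MonoidAlgebra (ZMod p) H) • (single (b : H) 1 : MonoidAlgebra (ZMod p) H) • v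
          rw [smul_smul, single_mul_single, one_mul] }
    have := IsSimpleModule.nontrivial (MonoidAlgebra (ZMod p) H) (MonoidAlgebra (ZMod p) H ⧸ m)
    have : Finite (MonoidAlgebra (ZMod p) H ⧸ m) := Finite.of_surjective _ (Submodule.Quotient.mk_surjective m)
    obtain ⟨v, hv⟩ := exists_ne (0 : MonoidAlgebra (ZMod p) H ⧸ m)
    obtain ⟨b, hb, hb0⟩ := hQ.exists_fixed_point_of_prime_dvd_card_of_fixed_point
      (MonoidAlgebra (ZMod p) H ⧸ m)
      ((addOrderOf_eq_prime (hpV v) hv).symm.dvd.trans (addOrderOf_dvd_natCard v)) (a := 0)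
      (fun q => smul_zero (single (q : H) 1 : MonoidAlgebra (ZMod p) H))
    have : b ∈ W := fun q hq => hb ⟨q, hq⟩
    rw [h] at this
    exact hb0 (this : b = 0).symm
  have hq : ∀ q ∈ Q, ∀ v : MonoidAlgebra (ZMod p) H ⧸ m, (single q 1 : MonoidAlgebra (ZMod p) H) • v = v :=
    fun q hq v => (hW ▸ Submodule.mem_top : v ∈ W) q hq
  rw [← Submodule.Quotient.mk_eq_zero, ← mul_one (∑ x, _), ← smul_eq_mul, Submodule.Quotient.mk_smul,
    Finset.sum_smul]
  refine sum_eq_zero_of_conj hpV hQ _ (fun q h x => ?_) fun x hx => ?_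
  · rw [hS q h]
    split_ifs
    · rw [sub_smul, sub_smul]
      congr 1
      rw [show (single (q * x * q⁻¹) 1 : MonoidAlgebra (ZMod p) H) = single q 1 * single x 1 * single q⁻¹ 1 by
        simp [single_mul_single], mul_smul, mul_smul, hq q h, hq _ (inv_mem h)]
    · rfl
  · split_ifs with h
    · rw [sub_smul, hq x (hC x h hx), one_smul, sub_self]
    · rw [zero_smul]

theorem isNilpotent_csum' {H Q : Subgroup G} (hQH : Q ≤ H) (hQ : IsPGroup p Q)
    (hn : ∀ h ∈ H, ∀ q ∈ Q, h * q * h⁻¹ ∈ Q) {S : G → Prop} (hC : ∀ x, S x → (∀ q ∈ Q, Commute x q) → x ∈ Q)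
    (hS : ∀ q x, S (q * x * q⁻¹) ↔ S x) : IsNilpotent (csum (ZMod p) fun x => S x ∧ x ∈ H) := by
  have : (Q.subgroupOf H).Normal := ⟨fun q hq h => hn h h.2 q hq⟩
  have h1 := (isNilpotent_of_normal' (Q := Q.subgroupOf H) hQ.comap_subtype (fun x : H => S (x : G))
    (fun x hx' hx => hC x hx' fun q hq => congrArg Subtype.val (hx ⟨q, hQH hq⟩ hq).eq)
    (fun q _ x => hS q x)).map (mapDomainRingHom (ZMod p) H.subtype)
  have e : csum (ZMod p) (fun x => S x ∧ x ∈ H) = mapDomainRingHom (ZMod p) H.subtype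
      (∑ x : H, if S (x : G) then (single x 1 - 1 : MonoidAlgebra (ZMod p) H) else 0) := by
    rw [map_sum, csum]
    rw [← Finset.sum_subset (Finset.subset_univ (Finset.univ.filter (· ∈ H))) (fun x _ hx => by
      simp only [Finset.mem_filter, Finset.mem_univ, true_and] at hx; simp [hx]),
      Finset.sum_subtype (p := (· ∈ H)) _ (by simp)]
    refine Finset.sum_congr rfl fun x _ => ?_
    by_cases h : S x
    · rw [if_pos ⟨h, x.2⟩, if_pos h, map_sub, map_one]; simp
    · rw [if_neg (fun h' => h h'.1), if_neg h, map_zero]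
  rw [e]
  exact h1

/-- Central characters of characters of positive defect on classes avoiding the central cosets of `p`-elements. -/
theorem centralChar_sub_mem {M : Ideal AlgInt} (hM : IsPModular p M)
    (hG : ∀ u : G, orderOf u = p → ∃ H Q : Subgroup G, Q ≤ H ∧ IsPGroup p Q ∧ (∀ h ∈ H, ∀ q ∈ Q, h * q * h⁻¹ ∈ Q) ∧
      (∀ x, Commute x u → x ∈ H) ∧ ∀ x, (∀ q ∈ Q, Commute x q) → ∃ z ∈ Subgroup.center G, z⁻¹ * x ∈ Q)
    {χ : G → ℂ} (hχ : IsIrrCharacter G χ)
    {d : ℕ} (hd : χ 1 = d) (hdvd : ¬ p ^ (Nat.card G).factorization p ∣ d) {g : G}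
    (hg : ∀ z ∈ Subgroup.center G, ∀ k : ℕ, (z⁻¹ * g) ^ p ^ k = 1 → z = 1) :
    MemLocalIdeal M (centralChar χ g - centralChar 1 g) := by
  have := hM.2.1.isPrime
  obtain ⟨u, hu, h⟩ := exists_defect_group hM hχ hd hdvd
  obtain ⟨H, Q, hQH, hQ, hn, hu', hC⟩ := hG u hu
  have hD : IsPGroup p (Subgroup.zpowers u) := IsPGroup.of_card (n := 1) (by rw [Nat.card_zpowers, hu, pow_one])
  have huH : Subgroup.zpowers u ≤ H := Subgroup.zpowers_le.mpr (hu' u (Commute.refl u))
  have hz : CInv ⊤ (csum ℤ (IsConj g)) := cinv_csum _ fun q _ => isConj_conj_iff g q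
  have hy : CInv (Subgroup.zpowers u) (csum (ZMod p) fun x => IsConj g x ∧ x ∈ H) := cinv_csum _ fun q hq x => by
    rw [isConj_conj_iff, H.mul_mem_cancel_right (inv_mem (huH hq)), H.mul_mem_cancel_left (huH hq)]
  obtain ⟨n, hn'⟩ := isNilpotent_csum' hQH hQ hn (S := IsConj g) (fun x hx hx' => by
    obtain ⟨z, hz, h1⟩ := hC x hx'
    obtain ⟨k, hk⟩ := hQ ⟨_, h1⟩
    obtain ⟨c, rfl⟩ := isConj_iff.mp hx
    have h2 : (z⁻¹ * (c * g * c⁻¹)) ^ p ^ k = 1 := congrArg Subtype.val hk
    have h3 : z⁻¹ * (c * g * c⁻¹) = c * (z⁻¹ * g) * c⁻¹ := by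
      rw [← mul_assoc c z⁻¹, Subgroup.mem_center_iff.mp (inv_mem hz) c]; group
    rw [h3, conj_pow, conj_eq_one_iff] at h2
    rw [hg z hz k h2] at h1
    simpa using h1) (isConj_conj_iff g)
  have h2 := BrZ.pow_sub hD (CInv.map (Int.castRingHom (ZMod p)) fun q _ => hz q trivial) hy (fun c hc => by
    have hcH : c ∈ H := hu' c (hc u (Subgroup.mem_zpowers u))
    rw [coeff_sub, Finsupp.sub_apply, map_csum, coeff_csum, coeff_csum]
    simp only [hcH, and_true]
    by_cases hc1 : c = 1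
    · rw [if_pos hc1, if_pos hc1, sub_sub_sub_comm, sub_eq_zero, eq_comm]
      refine Eq.trans ?_ (by split_ifs <;> simp : (0 : ZMod p) = _)
      rw [← Finset.sum_sub_distrib]
      refine sum_eq_zero_of_conj (p := p) (fun a => by simp) hD _ (fun q hq x => ?_) fun x hx => ?_
      · simp only [isConj_conj_iff, H.mul_mem_cancel_right (inv_mem (huH hq)), H.mul_mem_cancel_left (huH hq)]
        split_ifs <;> rfl
      · simp only [hu' x (hx u (Subgroup.mem_zpowers u)), and_true]
        split_ifs <;> simp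
    · rw [if_neg hc1, if_neg hc1]; split_ifs <;> simp) n
  rw [hn', sub_zero, ← map_pow] at h2
  have h3 := h _ (hz.pow n) h2
  rw [om_pow hχ hz] at h3
  rw [← om_csum hχ]
  clear h2 hn'
  induction n with
  | zero => exact (not_locIdeal_one (by simpa using h3)).elim
  | succ n ih =>
    rw [pow_succ'] at h3
    exact (locIdeal_or_of_mul (locRing_of_isIntegral (isIntegral_om hχ hz)) h3).elim id ih

theorem eq_one_of_locIdeal {M : Ideal AlgInt} (hM : IsPModular p M) {ζ : ℂ} {m : ℕ} (hm : ¬ p ∣ m) (h : ζ ^ m = 1)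
    (h1 : MemLocalIdeal M (ζ - 1)) : ζ = 1 := by
  have := hM.2.1.isPrime
  by_contra h2
  have hm0 : m ≠ 0 := by rintro rfl; exact hm (dvd_zero p)
  have hi : IsIntegral ℤ ζ := IsIntegral.of_pow (Nat.pos_of_ne_zero hm0) (h ▸ isIntegral_one)
  have h3 : ∑ i ∈ Finset.range m, ζ ^ i = 0 := by
    have := mul_neg_geom_sum ζ m
    rw [h, sub_self] at this
    exact (mul_eq_zero.mp this).resolve_left (sub_ne_zero.mpr (Ne.symm h2))
  have h4 : ∀ i : ℕ, MemLocalIdeal M (ζ ^ i - 1) := fun i => by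
    rw [← geom_sum_mul]
    exact locIdeal_mul_left (locRing_sum _ fun j _ => locRing_of_isIntegral (hi.pow j)) h1
  have h5 := locIdeal_neg (locIdeal_sum (Finset.range m) fun i _ => h4 i)
  rw [Finset.sum_sub_distrib, h3] at h5
  exact hm ((locIdeal_natCast_iff hM m).mp (by simpa using h5))

/-- The central character of an irreducible character on the centre. -/
noncomputable def zChar {χ : G → ℂ} (hχ : IsIrrCharacter G χ) : Subgroup.center G →* ℂˣ :=
  MonoidHom.toHomUnits
    { toFun := fun z => χ z / χ 1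
      map_one' := div_self (irr_one_ne_zero hχ)
      map_mul' := fun a b => by
        rw [Subgroup.coe_mul, irr_central_mul hχ a.2]; ring }

theorem zChar_apply {χ : G → ℂ} (hχ : IsIrrCharacter G χ) (z : Subgroup.center G) :
    (zChar hχ z : ℂ) = χ z / χ 1 := rfl

theorem exists_zChar_eq (θ : Subgroup.center G →* ℂˣ) : ∃ χ : IrrCharacter G, zChar χ.2 = θ := by
  have h1 : ∃ χ, IsIrrCharacter G χ ∧ classInner (indFun (Subgroup.center G) fun z => (θ z : ℂ)) χ ≠ 0 := by
    by_contra h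
    push Not at h
    have h2 := class_eq_zero_of_inner (isClass_indFun (Subgroup.center G) fun z => (θ z : ℂ)) h
    have h3 := indFun_apply_one (Subgroup.center G) fun z => (θ z : ℂ)
    rw [h2] at h3
    have := (Subgroup.center G).index_ne_zero_of_finite
    simp only [Pi.zero_apply, map_one, Units.val_one, mul_one] at h3
    exact this (by exact_mod_cast h3.symm)
  obtain ⟨χ, hχ, h⟩ := h1
  refine ⟨⟨χ, hχ⟩, ?_⟩
  rw [inner_indFun_left _ _ (isClass_of_irr hχ)] at h
  have e : (fun z : Subgroup.center G => χ z) = χ 1 • fun z => (zChar hχ z : ℂ) := by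
    ext z
    simp only [zChar_apply, Pi.smul_apply, smul_eq_mul, mul_div_cancel₀ _ (irr_one_ne_zero hχ)]
  rw [e, Char.inner_smul_right, inner_unitsHom] at h
  by_contra h2
  exact h (by rw [if_neg (Ne.symm h2), mul_zero])

open Cfsg.Agent.Chev Cfsg.Agent.Chev.RSys Cfsg.Agent.Chev.PreRGD

variable {ι I : Type*} [Fintype I] [DecidableEq I] {R : RSys ι I} [Fintype ι] [DecidableEq ι]
  {P : PreRGD R G} (hP : P.Nondeg) (hfull : P.full = ⊤) (hU : IsPGroup p P.U) (hU' : ¬ p ∣ P.U.index)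
include hP hfull hU hU'

theorem card_blocks_center (hgen : ∀ K : Subgroup G, K.Normal → P.U ≤ K → K = ⊤)
    (hC : ∀ J : Set I, J ≠ Set.univ → ∀ g, (∀ u ∈ P.UJ J, Commute g u) → ∃ z ∈ Subgroup.center G, z⁻¹ * g ∈ P.UJ J)
    (hne : P.U ≠ ⊥) (hZH : Subgroup.center G ≤ P.H) (hZ : ¬ p ∣ Nat.card (Subgroup.center G))
    {M : Ideal AlgInt} (hM : IsPModular p M) :
    Nat.card {B : Set (IrrCharacter G) // IsPBlock M B} = Nat.card (Subgroup.center G) + 1 := by
  have := hM.2.1.isPrime
  have hZ1 : ∀ z ∈ Subgroup.center G, ∀ k : ℕ, z ^ p ^ k = 1 → z = 1 := fun z hz k hk => by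
    obtain ⟨j, -, hj⟩ := (Nat.dvd_prime_pow hp.out).mp (orderOf_dvd_of_pow_eq_one hk)
    rcases j with _ | j
    · exact orderOf_eq_one_iff.mp hj
    · exact (hZ ((hj ▸ dvd_pow_self p j.succ_ne_zero).trans (Subgroup.orderOf_dvd_natCard _ hz))).elim
  have h1 : ∀ χ : IrrCharacter G, (χ : G → ℂ) ≠ P.St → ∀ g : G,
      (∀ z ∈ Subgroup.center G, ∀ k : ℕ, (z⁻¹ * g) ^ p ^ k = 1 → z = 1) →
      MemLocalIdeal M (centralChar (χ : G → ℂ) g - centralChar 1 g) := fun χ hχ g hg => by
    obtain ⟨d, -, hd⟩ := exists_pos_degree χ.2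
    refine centralChar_sub_mem hM (fun u hu => ?_) χ.2 hd
      (fun h => hχ (hP.eq_St_of_defect_zero hfull hU hU' hgen χ.2 hd h)) hg
    obtain ⟨y, J, hJ, a1, a2⟩ := hP.exists_parabolic hfull hU hU' (Q := Subgroup.zpowers u)
      (IsPGroup.of_card (n := 1) (by rw [Nat.card_zpowers, hu, pow_one]))
      (fun h => by rw [Subgroup.zpowers_eq_bot] at h; rw [h, orderOf_one] at hu; exact hp.out.one_lt.ne hu)
    refine ⟨cj y (P.PJ J), cj y (P.UJ J), fun x hx => P.UJ_le_PJ J hx,
      (hU.to_le (P.UJ_le_U J)).comap_of_injective _ (MulAut.conj y⁻¹).injective, fun h hh q hq => ?_,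
      fun x hx => mem_cj.mpr (a2 x fun v hv => ?_), fun x hx => ?_⟩
    · simpa [mem_cj, mul_assoc] using PJ_conj_UJ (mem_cj.mp hh) (mem_cj.mp hq)
    · obtain ⟨k, rfl⟩ := Subgroup.mem_zpowers_iff.mp hv
      rw [mul_assoc, ← (hx.zpow_right k).eq, inv_mul_cancel_left]
      exact hv
    · obtain ⟨z, hz, h⟩ := hC J hJ (y⁻¹ * x * y) fun v hv => by
        have := (hx (y * v * y⁻¹) (by simpa [mem_cj, mul_assoc] using hv)).eq
        change y⁻¹ * x * y * v = v * (y⁻¹ * x * y)
        calc _ = y⁻¹ * (x * (y * v * y⁻¹)) * y := by group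
          _ = _ := by rw [this]; group
      refine ⟨z, hz, mem_cj.mpr ?_⟩
      rwa [← mul_assoc y⁻¹, Subgroup.mem_center_iff.mp (inv_mem hz) y⁻¹, mul_assoc, mul_assoc, ← mul_assoc y⁻¹]
  have hpe : ∀ g : G, ∀ j : ℕ, g ^ p ^ j = 1 → ∀ z ∈ Subgroup.center G, ∀ k : ℕ, (z⁻¹ * g) ^ p ^ k = 1 → z = 1 :=
    fun g j hg z hz k hk => by
      have hc : Commute z⁻¹ g := (Subgroup.mem_center_iff.mp (inv_mem hz) g).symm
      have h2 : (z⁻¹ * g) ^ p ^ (k + j) = 1 := by rw [pow_add, pow_mul, hk, one_pow]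
      rw [hc.mul_pow, add_comm, pow_add, pow_mul g, hg, one_pow, mul_one, ← pow_add] at h2
      exact inv_eq_one.mp (hZ1 _ (inv_mem hz) _ h2)
  have h2 : ∀ χ : IrrCharacter G, (χ : G → ℂ) ≠ P.St → ¬ SameBlock M P.St χ := fun χ hχ h => by
    have : Nontrivial P.U := (Subgroup.nontrivial_iff_ne_bot _).mpr hne
    have := hU.center_nontrivial
    obtain ⟨⟨⟨u, hu⟩, hu'⟩, hu1⟩ := exists_ne (1 : Subgroup.center P.U)
    obtain ⟨k, hk⟩ := hU ⟨u, hu⟩
    have a1 : p ∣ orderOf u := by
      obtain ⟨j, -, hj⟩ := (Nat.dvd_prime_pow hp.out).mp (orderOf_dvd_of_pow_eq_one (congrArg Subtype.val hk :))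
      rcases j with _ | j
      · exact (hu1 (Subtype.ext (Subtype.ext (orderOf_eq_one_iff.mp hj)))).elim
      · exact hj ▸ dvd_pow_self p j.succ_ne_zero
    have a2 := locIdeal_neg (locIdeal_add (h u) (h1 χ hχ u (hpe u k (congrArg Subtype.val hk))))
    rw [sub_add_sub_cancel] at a2
    simp only [centralChar, hP.St_eq_zero hfull hU hU' a1, mul_zero, zero_div, zero_sub, neg_neg, Pi.one_apply,
      mul_one, div_one] at a2
    refine hU' (((locIdeal_natCast_iff hM _).mp a2).trans (Subgroup.index_dvd_of_le fun v hv => ?_))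
    exact Subgroup.mem_centralizer_singleton_iff.mpr (congrArg Subtype.val (Subgroup.mem_center_iff.mp hu' ⟨v, hv⟩))
  have h3 : zChar (hP.isIrr_St hfull) = 1 := by
    ext z
    rw [zChar_apply, hP.St_of_mem_B hfull (P.H_le_B (hZH z.2)), hP.St_of_mem_B hfull (one_mem _)]
    have e : fix P.B P.H z = fix P.B P.H 1 := by
      simp only [fix]
      congr 1
      refine Finset.sum_congr rfl fun x _ => ?_
      rw [mul_assoc, ← Subgroup.mem_center_iff.mp z.2 x]
      simp [hZH z.2]
    rw [e, ← hP.St_of_mem_B hfull (one_mem _), div_self (irr_one_ne_zero (hP.isIrr_St hfull))]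
    rfl
  have h4 : (1 : G → ℂ) ≠ P.St := fun h => by
    have e := hP.St_one hfull
    rw [← h, Pi.one_apply] at e
    exact hne (Subgroup.card_eq_one.mp (by exact_mod_cast e.symm))
  rw [card_isPBlock (fun χ : IrrCharacter G => if (χ : G → ℂ) = P.St then none else some (zChar χ.2))]
  · rw [Set.range_eq_univ.mpr, Nat.card_univ, Finite.card_option, card_unitsHom]
    rintro (_ | θ)
    · exact ⟨⟨_, hP.isIrr_St hfull⟩, by simp⟩
    · by_cases h : θ = 1
      · refine ⟨⟨1, isIrr_one⟩, ?_⟩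
        simp only [h4, if_false, h, Option.some.injEq]
        ext z; simp [zChar_apply]
      · obtain ⟨χ, rfl⟩ := exists_zChar_eq θ
        refine ⟨χ, if_neg fun h' => h ?_⟩
        obtain ⟨χ, hχ⟩ := χ
        obtain rfl : χ = P.St := h'
        exact h3
  · intro χ ψ
    by_cases a1 : (χ : G → ℂ) = P.St <;> by_cases a2 : (ψ : G → ℂ) = P.St <;>
      simp only [a1, a2, if_true, if_false, iff_true, reduceCtorEq, iff_false, Option.some.injEq]
    · exact sameBlock_refl _
    · exact h2 ψ a2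
    · exact fun h => h2 χ a1 (sameBlock_symm h)
    constructor
    · intro h
      ext z
      have b1 := h z
      rw [centralChar_central _ z.2, centralChar_central _ z.2, ← zChar_apply χ.2, ← zChar_apply ψ.2] at b1
      have b2 : (((zChar χ.2 z / zChar ψ.2 z : ℂˣ)) : ℂ) = 1 := by
        refine eq_one_of_locIdeal hM hZ ?_ ?_
        · rw [← Units.val_pow_eq_pow_val, div_pow, ← map_pow, ← map_pow, pow_card_eq_one']; simp
        · have b3 : IsIntegral ℤ ((zChar ψ.2 z⁻¹ : ℂˣ) : ℂ) :=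
            isIntegral_char (isChar_of_irr (isIrr_unitsHom (zChar ψ.2))) z⁻¹
          have := locIdeal_mul_right b1 (locRing_of_isIntegral b3)
          convert this using 1
          simp [sub_mul, div_eq_mul_inv]
      rw [Units.val_div_eq_div_val, div_eq_one_iff_eq (Units.ne_zero _)] at b2
      exact b2
    · intro h g
      by_cases hg : ∀ z ∈ Subgroup.center G, ∀ k : ℕ, (z⁻¹ * g) ^ p ^ k = 1 → z = 1
      · have := locIdeal_sub (h1 χ a1 g hg) (h1 ψ a2 g hg)
        rwa [sub_sub_sub_cancel_right] at this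
      · push Not at hg
        obtain ⟨z, hz, k, hk, -⟩ := hg
        have b1 := locIdeal_sub (h1 χ a1 _ (hpe _ k hk)) (h1 ψ a2 _ (hpe _ k hk))
        rw [sub_sub_sub_cancel_right] at b1
        have b2 : Subgroup.centralizer ({g} : Set G) = Subgroup.centralizer ({z⁻¹ * g} : Set G) := by
          ext x
          simp only [Subgroup.mem_centralizer_singleton_iff]
          rw [← mul_assoc, Subgroup.mem_center_iff.mp (inv_mem hz) x, mul_assoc, mul_assoc, mul_right_inj]
        have b3 : ∀ χ : IrrCharacter G, centralChar (χ : G → ℂ) g =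
            zChar χ.2 ⟨z, hz⟩ * centralChar (χ : G → ℂ) (z⁻¹ * g) := fun χ => by
          have := irr_central_mul χ.2 hz (z⁻¹ * g)
          rw [mul_inv_cancel_left] at this
          rw [centralChar, centralChar, this, b2, zChar_apply]; ring
        rw [b3, b3, h, ← mul_sub]
        exact locIdeal_mul_left (locRing_of_isIntegral
          (isIntegral_char (isChar_of_irr (isIrr_unitsHom (zChar ψ.2))) _)) b1

omit hU hU' in
theorem not_dvd_index_U' {n : ℕ} (hn : 0 < n) (hX : ∀ r, Nat.card (P.X r) = p ^ n) (hH : ¬ p ∣ Nat.card P.H) :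
    ¬ p ∣ P.U.index := by
  have h1 := hP.card_PJ Set.univ
  have h2 : P.PJ Set.univ = ⊤ := hfull
  rw [h2, Subgroup.card_top, ← Finset.mul_sum, hP.card_B, ← P.U.card_mul_index, mul_assoc] at h1
  rw [Nat.eq_of_mul_eq_mul_left Nat.card_pos h1, hp.out.dvd_mul]
  rintro (h | h)
  · exact hH h
  rw [← Finset.add_sum_erase _ _ (a := 1) (by simp), hP.card_Uw hX (one_mem _), length_one, pow_zero,
    Nat.dvd_add_left] at h
  · exact hp.out.one_lt.ne' (Nat.dvd_one.1 h)
  refine Finset.dvd_sum fun w hw => ?_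
  simp only [Finset.mem_erase, Finset.mem_filter, Finset.mem_univ, true_and, WJ_univ] at hw
  rw [hP.card_Uw hX hw.2, ← pow_mul]
  exact dvd_pow_self p (Nat.mul_ne_zero hn.ne' fun h0 => hw.1 ((length_eq_zero_iff hw.2).1 h0))

end Cfsg.Agent.TypeA
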